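import Mathlib
import Cfsg.Agent.Lib.Clifford.Basic
import Cfsg.Agent.Lib.CharTheory.Ito
import Cfsg.Agent.Lib.CharTheory.Linear
import Cfsg.Agent.Lib.CharTheory.Inflation
import Cfsg.Agent.Lib.CharDegreesTheory.IrrComp
import Cfsg.Agent.Lib.Correspondences.Inflate
import Cfsg.Agent.Lib.Correspondences.PGroupDegrees
import Cfsg.Agent.Lib.Correspondences.RealLocal
import Cfsg.Agent.Lib.ZerosCodegree.CharBasics

/-!
Odd-degree (possibly real) irreducible characters above a linear character of a normal subgroup: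
change of group and Clifford correspondence.
-/

set_option autoImplicit false
set_option linter.style.haveILetI false
set_option linter.unusedSectionVars false

open Cfsg CfsgLib.CharTheory
open scoped ComplexConjugate

namespace CfsgLib.Correspondences

attribute [local instance 10000] Classical.propDecidable

variable {H H' V : Type*} [Group H] [Group H'] [Group V]

/-- `χ` lies over the linear character `θ` along `f`. -/
def OverHom (f : V →* H) (θ : V →* ℂˣ) (χ : H → ℂ) : Prop :=
  ∑ᶠ v : V, χ (f v) * conj ((θ v : ℂˣ) : ℂ) ≠ 0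

/-- Real-valued, when the flag asks for it. -/
def RealIf {A : Type*} (b : Bool) (χ : A → ℂ) : Prop := b = true → ∀ a, (χ a).im = 0

/-- The odd-degree irreducible characters over `θ`, real-valued if `b`. -/
abbrev OddOver (b : Bool) (f : V →* H) (θ : V →* ℂˣ) : Type _ :=
  {χ : IrrCharacter H // RealIf b (χ : H → ℂ) ∧ Odd (charDegree (χ : H → ℂ)) ∧
    OverHom f θ (χ : H → ℂ)}

/-- Only linear characters trivial on the kernel of the map lie below. -/
theorem overHom_iff_range [Fintype V] {M : Subgroup H} [Fintype M] (f : V →* H) (hf : f.range = M)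
    (θ : V →* ℂˣ) (θM : M → ℂ) (hθM : ∀ (v : V) (h : f v ∈ M), θM ⟨f v, h⟩ = θ v) (χ : H → ℂ) :
    OverHom f θ χ ↔ classInner (fun m : M => χ m) θM ≠ 0 := by
  subst hf
  have key : ∑ᶠ v : V, χ (f v) * conj ((θ v : ℂˣ) : ℂ) =
      (Nat.card f.ker : ℂ) * ∑ m : f.range, χ m * conj (θM m) := by
    rw [finsum_eq_sum_of_fintype, Finset.mul_sum, ← Finset.sum_fiberwise Finset.univ f.rangeRestrict]
    refine Finset.sum_congr rfl fun m _ => ?_
    rw [Finset.sum_congr rfl (g := fun _ => χ m * conj (θM m)) fun v hv => by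
      obtain rfl := (Finset.mem_filter.1 hv).2
      exact congrArg (fun z => χ (f v) * conj z) (hθM v (f.rangeRestrict v).2).symm,
      Finset.sum_const, nsmul_eq_mul]
    congr 2
    obtain ⟨v₀, hv₀⟩ := f.rangeRestrict_surjective m
    rw [Nat.card_eq_fintype_card, ← Finset.card_univ]
    refine Finset.card_bij (fun v _ => ⟨v * v₀⁻¹, ?_⟩) (fun _ _ => Finset.mem_univ _) ?_ ?_
    · rename_i hv
      have h1 : f v = f v₀ :=
        congrArg Subtype.val ((Finset.mem_filter.1 hv).2.trans hv₀.symm)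
      rw [MonoidHom.mem_ker, map_mul, map_inv, h1, mul_inv_cancel]
    · intro a _ c _ h
      exact mul_right_cancel (congrArg Subtype.val h)
    · intro k _
      refine ⟨(k : V) * v₀, Finset.mem_filter.2 ⟨Finset.mem_univ _, ?_⟩, Subtype.ext (by simp)⟩
      rw [← hv₀]
      exact Subtype.ext (by simp [MonoidHom.mem_ker.1 k.2])
  rw [OverHom, key, classInner]
  constructor
  · intro h h0
    rcases mul_eq_zero.1 h0 with h1 | h1
    · exact (inv_ne_zero (Nat.cast_ne_zero.2 Nat.card_pos.ne')) h1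
    · exact h (by rw [h1, mul_zero])
  · intro h h0
    rcases mul_eq_zero.1 h0 with h1 | h1
    · exact Nat.card_pos.ne' (Nat.cast_eq_zero.1 h1)
    · exact h (by rw [h1, mul_zero])

/-- Change of group along a surjection whose kernel is killed by the characters in question. -/
theorem card_oddOver_of_surjective [Finite H] [Finite H'] (b : Bool) (f : V →* H) (θ : V →* ℂˣ)
    (q : H →* H') (hq : Function.Surjective q)
    (hker : ∀ χ : OddOver b f θ, ∀ k ∈ q.ker, (χ.1 : H → ℂ) k = (χ.1 : H → ℂ) 1) :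
    Nat.card (OddOver b f θ) = Nat.card (OddOver b (q.comp f) θ) := by
  let F : OddOver b (q.comp f) θ → OddOver b f θ := fun χ =>
    ⟨⟨fun h => (χ.1 : H' → ℂ) (q h), isIrrCharacter_comp_of_surjective χ.1.2 q hq⟩,
      fun hb a => χ.2.1 hb (q a),
      by
        have h1 := χ.2.2.1
        unfold charDegree at h1 ⊢
        show Odd ⌊((χ.1 : H' → ℂ) (q 1)).re⌋₊
        rwa [map_one],
      χ.2.2.2⟩
  refine (Nat.card_congr (Equiv.ofBijective F ⟨?_, ?_⟩)).symm
  · intro a c h
    refine Subtype.ext (Subtype.ext (funext fun x => ?_))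
    obtain ⟨y, rfl⟩ := hq x
    exact congrFun (congrArg (fun z : OddOver b f θ => (z.1 : H → ℂ)) h) y
  · intro χ
    obtain ⟨ψ, hψ, hψ'⟩ := exists_descend χ.1.2 q.ker (hker χ)
    let e : H ⧸ q.ker ≃* H' := QuotientGroup.quotientKerEquivOfSurjective q hq
    have hval : ∀ h : H, ψ (e.symm (q h)) = (χ.1 : H → ℂ) h := fun h => by
      rw [hψ' h]
      congr 1
      rw [MulEquiv.symm_apply_eq]
      rfl
    refine ⟨⟨⟨fun x => ψ (e.symm x), isIrrCharacter_comp_mulEquiv hψ e.symm⟩, fun hb a => ?_, ?_, ?_⟩,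
      Subtype.ext (Subtype.ext (funext hval))⟩
    · obtain ⟨y, rfl⟩ := hq a
      show (ψ _).im = 0
      rw [hval]
      exact χ.2.1 hb y
    · have h1 := χ.2.2.1
      unfold charDegree at h1 ⊢
      show Odd ⌊(ψ (e.symm 1)).re⌋₊
      rwa [← map_one q, hval]
    · show OverHom (q.comp f) θ fun x => ψ (e.symm x)
      simp only [OverHom, MonoidHom.coe_comp, Function.comp_apply, hval]
      exact χ.2.2.2

/-- The linear character induced on the image. -/
theorem exists_hom_range (f : V →* H) (θ : V →* ℂˣ) (hker : f.ker ≤ θ.ker) :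
    ∃ θM : f.range →* ℂˣ, ∀ (v : V) (h : f v ∈ f.range), θM ⟨f v, h⟩ = θ v := by
  refine ⟨(f.rangeRestrict).liftOfSurjective f.rangeRestrict_surjective
    ⟨θ, by rwa [MonoidHom.ker_rangeRestrict]⟩, fun v h => ?_⟩
  exact MonoidHom.liftOfRightInverse_comp_apply _ _ _ ⟨θ, _⟩ v

/-- Conjugation by `g` carries `θ` to `η`. -/
def ConjBy (f : V →* H) (θ η : V →* ℂˣ) (g : H) : Prop :=
  ∀ v w, f w = g * f v * g⁻¹ → η w = θ v

theorem conjBy_self_iff_mem_inertia (f : V →* H) [f.range.Normal] (θ : V →* ℂˣ)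
    (θM : f.range →* ℂˣ) (hθM : ∀ (v : V) (h : f v ∈ f.range), θM ⟨f v, h⟩ = θ v) (g : H) :
    ConjBy f θ θ g ↔ g ∈ inertia f.range (fun m => (θM m : ℂ)) := by
  rw [← Subgroup.inv_mem_iff, mem_inertia, CfsgLib.Clifford.conjChar_eq_comp, funext_iff]
  have key : ∀ v w, f w = g * f v * g⁻¹ →
      MulAut.conjNormal g⁻¹ (f.rangeRestrict w) = f.rangeRestrict v := fun v w hw =>
    Subtype.ext (by
      rw [MulAut.conjNormal_apply, inv_inv]
      show g⁻¹ * f w * g = f v
      rw [hw]
      group)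
  have hval : ∀ v, θM (f.rangeRestrict v) = θ v := fun v => hθM v _
  constructor
  · intro h m
    obtain ⟨w, rfl⟩ := f.rangeRestrict_surjective m
    obtain ⟨v, hv⟩ := (inferInstance : f.range.Normal).conj_mem (f w) ⟨w, rfl⟩ g⁻¹
    have hw : f w = g * f v * g⁻¹ := by rw [hv]; group
    show (θM (MulAut.conjNormal g⁻¹ (f.rangeRestrict w)) : ℂ) = θM (f.rangeRestrict w)
    rw [key v w hw, hval, hval, h v w hw]
  · intro h v w hw
    have h1 := h (f.rangeRestrict w)
    change (θM (MulAut.conjNormal g⁻¹ (f.rangeRestrict w)) : ℂ) = θM (f.rangeRestrict w) at h1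
    rw [key v w hw, hval, hval] at h1
    exact (Units.ext h1).symm

/-- The Clifford correspondence for a subgroup of odd index. -/
theorem card_oddOver_inertia [Finite H] [Finite V] (b : Bool) (f : V →* H) (θ : V →* ℂˣ)
    (hn : f.range.Normal) (hker : f.ker ≤ θ.ker) (hθ : RealIf b fun v => (θ v : ℂ))
    (T : Subgroup H) (hT : ∀ g, g ∈ T ↔ ConjBy f θ θ g) (hodd : Odd T.index)
    (fT : V →* T) (hfT : T.subtype.comp fT = f) :
    Nat.card (OddOver b f θ) = Nat.card (OddOver b fT θ) := by
  haveI := hn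
  haveI := Fintype.ofFinite H
  haveI := Fintype.ofFinite T
  haveI := Fintype.ofFinite V
  obtain ⟨θM, hθM⟩ := exists_hom_range f θ hker
  haveI := Fintype.ofFinite f.range
  set θC : f.range → ℂ := fun m => (θM m : ℂ) with hθC
  have hθi : IsIrrCharacter f.range θC := isIrrCharacter_linear θM
  have hMT : f.range ≤ T := by
    rintro _ ⟨v, rfl⟩
    rw [← hfT]
    exact (fT v).2
  have hT' : ∀ g : H, g ∈ T ↔ CfsgLib.Clifford.conjChar f.range θC g = θC := fun g => by
    rw [hT, conjBy_self_iff_mem_inertia f θ θM hθM, mem_inertia]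
  have hover : ∀ χ : H → ℂ, OverHom f θ χ ↔ classInner (fun m : f.range => χ m) θC ≠ 0 := fun χ =>
    overHom_iff_range f rfl θ θC (fun v h => by rw [hθC, ← hθM v h]) χ
  let ιM : f.range →* T := Subgroup.inclusion hMT
  have hoverT : ∀ ψ : T → ℂ, OverHom fT θ ψ ↔
      classInner (fun m : f.range => ψ ⟨(m : H), hMT m.2⟩) θC ≠ 0 := by
    intro ψ
    have h := overHom_iff_range f rfl θ θC (fun v h => by rw [hθC, ← hθM v h])
      (extendByZero T ψ)
    have e1 : ∀ v, extendByZero T ψ (f v) = ψ (fT v) := fun v => by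
      rw [← hfT]
      exact Subtype.val_injective.extend_apply ψ 0 (fT v)
    have e2 : ∀ m : f.range, extendByZero T ψ m = ψ ⟨(m : H), hMT m.2⟩ := fun m => by
      exact Subtype.val_injective.extend_apply ψ 0 ⟨(m : H), hMT m.2⟩
    simp only [OverHom, e1, e2] at h
    exact h
  have hidx : ∀ ψ : T → ℂ, IsIrrCharacter T ψ →
      ∀ hi : IsIrrCharacter H (indFun T ψ), charDegree (indFun T ψ) = T.index * charDegree ψ := by
    intro ψ hψ hi
    have h1 := CfsgLib.Frobenius.indFun_one T ψ
    rw [← charDegree_cast (IsIrrCharacter.isCharacter hi),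
      ← charDegree_cast (IsIrrCharacter.isCharacter hψ), ← Nat.cast_mul] at h1
    exact_mod_cast h1
  have hind : ∀ ψ : OddOver b fT θ, IsIrrCharacter H (indFun T (ψ.1 : T → ℂ)) ∧
      classInner (fun n : f.range => indFun T (ψ.1 : T → ℂ) n) θC =
        classInner (fun n : f.range => (ψ.1 : T → ℂ) ⟨(n : H), hMT n.2⟩) θC := fun ψ =>
    CfsgLib.Clifford.isIrrCharacter_indFun_inertia hθi hT' hMT ψ.1.2 ((hoverT _).1 ψ.2.2.2)
  have hreal : ∀ ψ : T → ℂ, (fun g => conj (indFun T ψ g)) = indFun T (fun t => conj (ψ t)) := by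
    intro ψ
    funext g
    have key : ∀ y : H, conj (extendByZero T ψ y) = extendByZero T (fun t => conj (ψ t)) y := by
      intro y
      by_cases hy : y ∈ T
      · rw [show y = ((⟨y, hy⟩ : T) : H) from rfl, extendByZero, extendByZero,
          Subtype.val_injective.extend_apply, Subtype.val_injective.extend_apply]
      · have hne : ¬ ∃ t : T, (t : H) = y := fun ⟨t, ht⟩ => hy (ht ▸ t.2)
        rw [extendByZero, extendByZero, Function.extend_apply' _ _ _ hne,
          Function.extend_apply' _ _ _ hne]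
        simp
    simp only [indFun, map_mul, map_inv₀, map_sum, key, Complex.conj_natCast]
  let F : OddOver b fT θ → OddOver b f θ := fun ψ =>
    ⟨⟨indFun T (ψ.1 : T → ℂ), (hind ψ).1⟩,
      fun hb g => by
        rw [← Complex.conj_eq_iff_im]
        show conj (indFun T (ψ.1 : T → ℂ) g) = indFun T (ψ.1 : T → ℂ) g
        rw [congrFun (hreal _) g]
        congr 1
        funext t
        exact Complex.conj_eq_iff_im.2 (ψ.2.1 hb t),
      by
        show Odd (charDegree (indFun T (ψ.1 : T → ℂ)))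
        rw [hidx _ ψ.1.2 (hind ψ).1]
        exact hodd.mul ψ.2.2.1,
      (hover _).2 (by
        show classInner (fun n : f.range => indFun T (ψ.1 : T → ℂ) n) θC ≠ 0
        rw [(hind ψ).2]
        exact (hoverT _).1 ψ.2.2.2)⟩
  refine (Nat.card_congr (Equiv.ofBijective F ⟨?_, ?_⟩)).symm
  · intro a c h
    refine Subtype.ext (Subtype.ext ?_)
    exact CfsgLib.Clifford.indFun_inertia_injective hθi hT' hMT a.1.2 c.1.2
      ((hoverT _).1 a.2.2.2) ((hoverT _).1 c.2.2.2)
      (congrArg (fun z : OddOver b f θ => (z.1 : H → ℂ)) h)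
  · intro χ
    obtain ⟨ψ, hψ, hψind, hψmult⟩ := CfsgLib.Clifford.exists_indFun_inertia_eq hθi hT' hMT χ.1.2
      ((hover _).1 χ.2.2.2)
    have hψover : classInner (fun n : f.range => ψ ⟨(n : H), hMT n.2⟩) θC ≠ 0 := by
      rw [hψmult]
      exact (hover _).1 χ.2.2.2
    refine ⟨⟨⟨ψ, hψ⟩, fun hb => ?_, ?_, (hoverT ψ).2 hψover⟩, Subtype.ext (Subtype.ext hψind)⟩
    · have hconj : IsIrrCharacter T fun t => conj (ψ t) := isIrrCharacter_conj hψ
      have hθr : ∀ m : f.range, conj (θC m) = θC m := by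
        rintro ⟨_, v, rfl⟩
        show conj ((θM (f.rangeRestrict v) : ℂˣ) : ℂ) = ((θM (f.rangeRestrict v) : ℂˣ) : ℂ)
        rw [show θM (f.rangeRestrict v) = θ v from hθM v _]
        exact Complex.conj_eq_iff_im.2 (hθ hb v)
      have h2 : classInner (fun n : f.range => conj (ψ ⟨(n : H), hMT n.2⟩)) θC ≠ 0 := by
        have e : classInner (fun n : f.range => conj (ψ ⟨(n : H), hMT n.2⟩)) θC =
            conj (classInner (fun n : f.range => ψ ⟨(n : H), hMT n.2⟩) θC) := by
          simp [classInner, map_sum, hθr]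
        rw [e]
        exact (map_ne_zero_iff _ (starRingEnd ℂ).injective).2 hψover
      have heq : indFun T (fun t => conj (ψ t)) = indFun T ψ := by
        rw [← hreal ψ, hψind]
        exact funext fun g => Complex.conj_eq_iff_im.2 (χ.2.1 hb g)
      have := CfsgLib.Clifford.indFun_inertia_injective hθi hT' hMT hconj hψ h2 hψover heq
      exact fun a => Complex.conj_eq_iff_im.1 (congrFun this a)
    · have h1 := χ.2.2.1
      rw [← hψind, hidx ψ hψ (hψind.symm ▸ χ.1.2), Nat.odd_mul] at h1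
      exact h1.2

end CfsgLib.Correspondences
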