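import Mathlib
import Cfsg.Agent.Lib.Correspondences.OddDegreeOver
import Cfsg.Agent.Lib.ZerosCodegree.CentralSubgroup

/-!
Linear constituents fixed by a Sylow `2`-subgroup below characters of odd degree, and the partition
of the odd-degree characters by such constituents.
-/

set_option autoImplicit false
set_option linter.style.haveILetI false
set_option linter.unusedSectionVars false

open Cfsg CfsgLib.CharTheory
open CfsgLib.CharDegreesTheory (mult classInner_eq_mult mult_comp_equiv)
open scoped ComplexConjugate Pointwise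

namespace CfsgLib.Correspondences

variable {H U V : Type*} [Group H] [Group U] [Group V]

namespace ConjBy

variable {f : V →* H} {θ η κ : V →* ℂˣ} {g h : H}

theorem symm (hc : ConjBy f θ η g) : ConjBy f η θ g⁻¹ := fun v w hw => by
  refine (hc w v ?_).symm
  rw [hw]
  group

theorem trans (hn : f.range.Normal) (h1 : ConjBy f θ η g) (h2 : ConjBy f η κ h) :
    ConjBy f θ κ (h * g) := fun v w hw => by
  obtain ⟨u, hu⟩ := hn.conj_mem (f v) ⟨v, rfl⟩ g
  rw [h2 u w (by rw [hw, hu]; group), h1 v u hu]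

theorem realIf {b : Bool} (hn : f.range.Normal) (hc : ConjBy f θ η g)
    (hθ : RealIf b fun v => (θ v : ℂ)) : RealIf b fun v => (η v : ℂ) := fun hb w => by
  obtain ⟨v, hv⟩ := hn.conj_mem (f w) ⟨w, rfl⟩ g⁻¹
  show (η w : ℂ).im = 0
  rw [hc v w (by rw [hv]; group)]
  exact hθ hb v

theorem comp_iff {H' : Type*} [Group H'] (ι : H →* H') (hι : Function.Injective ι) :
    ConjBy (ι.comp f) θ η (ι g) ↔ ConjBy f θ η g := by
  refine forall_congr' fun v => forall_congr' fun w => ?_
  simp only [MonoidHom.coe_comp, Function.comp_apply, ← map_inv, ← map_mul, hι.eq_iff]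

end ConjBy

theorem overHom_iff_mult [Finite H] [Finite V] (f : V →* H) (θ : V →* ℂˣ) {χ : H → ℂ}
    (hχ : IsCharacter H χ) : OverHom f θ χ ↔ mult f χ (fun v => (θ v : ℂ)) ≠ 0 := by
  haveI := Fintype.ofFinite V
  have h1 := classInner_eq_mult f hχ ⟨_, isIrrCharacter_linear θ⟩
  rw [classInner] at h1
  rw [OverHom, finsum_eq_sum_of_fintype]
  constructor
  · intro h h0
    rw [h0, Nat.cast_zero, mul_eq_zero] at h1
    exact h (h1.resolve_left (inv_ne_zero (Nat.cast_ne_zero.2 Nat.card_pos.ne')))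
  · intro h h0
    rw [h0, mul_zero] at h1
    exact h (Nat.cast_eq_zero.1 h1.symm)

/-- Conjugation inside an injectively embedded normal group. -/
theorem exists_conjAut (f : U →* H) (hf : Function.Injective f) (hn : f.range.Normal) (g : H) :
    ∃ α : U ≃* U, ∀ u, f (α u) = g * f u * g⁻¹ := by
  haveI := hn
  let e : U ≃* f.range := MonoidHom.ofInjective hf
  refine ⟨(e.trans (MulAut.conjNormal g)).trans e.symm, fun u => ?_⟩
  show f (e.symm (MulAut.conjNormal g (e u))) = _
  rw [← MonoidHom.ofInjective_apply hf, show MonoidHom.ofInjective hf = e from rfl,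
    MulEquiv.apply_symm_apply, MulAut.conjNormal_apply]
  rfl

theorem OverHom.conjBy [Fintype U] {f : U →* H} (hf : Function.Injective f) (hn : f.range.Normal)
    {φ η : U →* ℂˣ} {g : H} (hc : ConjBy f φ η g) {χ : H → ℂ} (hcl : IsClassFunction H χ)
    (h : OverHom f φ χ) : OverHom f η χ := by
  obtain ⟨α, hα⟩ := exists_conjAut f hf hn g
  rw [OverHom, finsum_eq_sum_of_fintype] at h ⊢
  rwa [← Equiv.sum_comp α.toEquiv, Finset.sum_congr rfl fun u _ => ?_]
  show χ (f (α u)) * conj (η (α u) : ℂ) = _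
  rw [hα, hc u _ (hα u)]
  rw [hcl (f u) g]

/-- A parity count: an involution of a set of odd size fixes a point. -/
theorem exists_fixed_of_involutive {α : Type*} [Finite α] (hodd : Odd (Nat.card α)) (c : α → α)
    (hc : Function.Involutive c) : ∃ a, c a = a := by
  haveI := Fintype.ofFinite α
  by_contra h
  push Not at h
  have h1 : ∑ _a : α, (1 : ZMod 2) = 0 :=
    Finset.sum_involution (fun a _ => c a) (fun _ _ => CharTwo.add_self_eq_zero _) (fun a _ _ => h a)
      (fun a _ => Finset.mem_univ _) fun a _ => hc a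
  rw [Finset.sum_const, Finset.card_univ, nsmul_eq_mul, mul_one,
    ZMod.natCast_eq_zero_iff_even, ← Nat.card_eq_fintype_card] at h1
  exact Nat.not_even_iff_odd.2 hodd h1

/-- Below a character of odd degree there is a linear character fixed by a given `2`-group, real
if the character is real, provided the odd-degree characters of the group below are linear. -/
theorem exists_fixed_constituent [Finite H] [Finite U] (b : Bool) (P : Subgroup H)
    (hP : IsPGroup 2 P) (f : U →* H) (hf : Function.Injective f) (hn : f.range.Normal)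
    (hlin : ∀ ψ : IrrCharacter U, Odd (charDegree (ψ : U → ℂ)) → charDegree (ψ : U → ℂ) = 1)
    {χ : H → ℂ} (hχ : IsIrrCharacter H χ) (hreal : RealIf b χ) (hodd : Odd (charDegree χ)) :
    ∃ φ : U →* ℂˣ, RealIf b (fun u => (φ u : ℂ)) ∧ (∀ p ∈ P, ConjBy f φ φ p) ∧ OverHom f φ χ := by
  classical
  haveI := Fintype.ofFinite U
  haveI := Fintype.ofFinite (IrrCharacter U)
  have hχc := IsIrrCharacter.isCharacter hχ
  let S := {ψ : IrrCharacter U // Odd (mult f χ (ψ : U → ℂ) * charDegree (ψ : U → ℂ))}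
  have hS : Odd (Nat.card S) := by
    have hcl : IsClassFunction U (fun u => χ (f u)) :=
      IsCharacter.isClassFunction (CfsgLib.Coherence.isCharacter_comp hχc f)
    have h1 := congrFun (eq_sum_classInner hcl) 1
    simp only [Finset.sum_apply, Pi.smul_apply, smul_eq_mul, map_one] at h1
    have h2 : charDegree χ =
        ∑ ψ : IrrCharacter U, mult f χ (ψ : U → ℂ) * charDegree (ψ : U → ℂ) := by
      have h3 : (charDegree χ : ℂ) =
          ((∑ ψ : IrrCharacter U, mult f χ (ψ : U → ℂ) * charDegree (ψ : U → ℂ) : ℕ) : ℂ) := by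
        push_cast
        rw [charDegree_cast hχc, h1]
        exact Finset.sum_congr rfl fun ψ _ => by
          rw [classInner_eq_mult f hχc ψ, charDegree_cast (IsIrrCharacter.isCharacter ψ.2)]
      exact_mod_cast h3
    rw [h2, Finset.odd_sum_iff_odd_card_odd] at hodd
    rw [Nat.card_eq_fintype_card, Fintype.card_subtype]
    convert hodd
  -- conjugation
  choose α hα using exists_conjAut f hf hn
  have hα1 : ∀ u, α 1 u = u := fun u => hf (by rw [hα]; group)
  have hαm : ∀ g k u, α (g * k) u = α g (α k u) := fun g k u => hf (by rw [hα, hα, hα]; group)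
  have hmult : ∀ (g : H) (ψ : U → ℂ), mult f χ (fun u => ψ (α g u)) = mult f χ ψ := by
    intro g ψ
    have h := mult_comp_equiv f f (MulAut.conj g) (α g) (fun u => by
      rw [hα, MulAut.conj_apply]) χ ψ
    rwa [show (fun x => χ (MulAut.conj g x)) = χ from funext fun x => by
      rw [MulAut.conj_apply, IsIrrCharacter.isClassFunction hχ x g]] at h
  letI : MulAction P S :=
    { smul := fun p ψ => ⟨⟨fun u => (ψ.1 : U → ℂ) (α (p : H)⁻¹ u),
        isIrrCharacter_comp_mulEquiv ψ.1.2 _⟩, by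
          show Odd (mult f χ (fun u => (ψ.1 : U → ℂ) (α (p : H)⁻¹ u)) *
            charDegree (fun u => (ψ.1 : U → ℂ) (α (p : H)⁻¹ u)))
          rw [hmult]
          convert ψ.2 using 2
          unfold charDegree
          show _ = _
          simp only [map_one]⟩
      one_smul := fun ψ => Subtype.ext (Subtype.ext (funext fun u => by
        show (ψ.1 : U → ℂ) (α (((1 : P) : H))⁻¹ u) = _
        rw [OneMemClass.coe_one, inv_one, hα1]))
      mul_smul := fun p q ψ => Subtype.ext (Subtype.ext (funext fun u => by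
        show (ψ.1 : U → ℂ) (α (((p * q : P) : H))⁻¹ u) = (ψ.1 : U → ℂ) (α (q : H)⁻¹ (α (p : H)⁻¹ u))
        rw [Subgroup.coe_mul, mul_inv_rev, hαm])) }
  have hF : Odd (Nat.card (MulAction.fixedPoints P S)) := by
    have h := IsPGroup.card_modEq_card_fixedPoints (α := S) hP
    rw [Nat.ModEq] at h
    rw [Nat.odd_iff] at hS ⊢
    omega
  -- pick a fixed point, real if needed
  obtain ⟨⟨ψ, hψfix⟩, hψreal⟩ : ∃ ψ : MulAction.fixedPoints P S,
      RealIf b (ψ.1.1 : U → ℂ) := by
    by_cases hb : b = true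
    · have hcr : ∀ x, conj (χ x) = χ x := fun x => Complex.conj_eq_iff_im.2 (hreal hb x)
      let c : MulAction.fixedPoints P S → MulAction.fixedPoints P S := fun ψ =>
        ⟨⟨⟨fun u => conj ((ψ.1.1 : U → ℂ) u), isIrrCharacter_conj ψ.1.1.2⟩, by
          show Odd (mult f χ (fun u => conj ((ψ.1.1 : U → ℂ) u)) *
            charDegree (fun u => conj ((ψ.1.1 : U → ℂ) u)))
          have hm := mult_conj f hχc ψ.1.1
          rw [show (fun x => conj (χ x)) = χ from funext hcr] at hm
          rw [hm]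
          convert ψ.1.2 using 2
          unfold charDegree
          rw [Complex.conj_re]⟩, fun p => by
          refine Subtype.ext (Subtype.ext (funext fun u => ?_))
          show conj ((ψ.1.1 : U → ℂ) (α (p : H)⁻¹ u)) = conj ((ψ.1.1 : U → ℂ) u)
          exact congrArg _ (congrFun (congrArg (fun z : S => (z.1 : U → ℂ)) (ψ.2 p)) u)⟩
      obtain ⟨ψ, hψ⟩ := exists_fixed_of_involutive hF c fun ψ =>
        Subtype.ext (Subtype.ext (Subtype.ext (funext fun u => Complex.conj_conj _)))
      exact ⟨ψ, fun _ u => Complex.conj_eq_iff_im.1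
        (congrFun (congrArg (fun z : MulAction.fixedPoints P S => (z.1.1 : U → ℂ)) hψ) u)⟩
    · obtain ⟨ψ⟩ : Nonempty (MulAction.fixedPoints P S) := by
        by_contra h
        rw [not_nonempty_iff] at h
        rw [Nat.card_of_isEmpty] at hF
        exact absurd hF Nat.not_odd_zero
      exact ⟨ψ, fun h => absurd h hb⟩
  obtain ⟨ψ, hψodd⟩ := ψ
  rw [Nat.odd_mul] at hψodd
  obtain ⟨φ, hφ⟩ := exists_hom_of_degree_one ψ.2 (by
    rw [← charDegree_cast (IsIrrCharacter.isCharacter ψ.2), hlin ψ hψodd.2, Nat.cast_one])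
  refine ⟨φ, fun hb u => ?_, fun p hp v w hw => ?_, ?_⟩
  · have := hψreal hb u
    rwa [show (ψ : U → ℂ) u = φ u from congrFun hφ u] at this
  · have h := congrFun (congrArg (fun z : S => (z.1 : U → ℂ)) (hψfix ⟨p, hp⟩)) w
    change (ψ : U → ℂ) (α p⁻¹ w) = (ψ : U → ℂ) w at h
    rw [hφ, show α p⁻¹ w = v from hf (by rw [hα, hw]; group)] at h
    exact (Units.ext h).symm
  · rw [overHom_iff_mult f φ hχc, ← hφ]
    exact hψodd.1.pos.ne'

/-- Fixed constituents of one character are conjugate under the normalizer. -/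
theorem exists_normalizer_conjBy [Finite H] [Finite U] (P : Sylow 2 H) (f : U →* H)
    (hf : Function.Injective f) (hn : f.range.Normal) {φ η : U →* ℂˣ}
    (hφP : ∀ p ∈ (P : Subgroup H), ConjBy f φ φ p) (hηP : ∀ p ∈ (P : Subgroup H), ConjBy f η η p)
    {χ : H → ℂ} (hχ : IsIrrCharacter H χ) (hφ : OverHom f φ χ) (hη : OverHom f η χ) :
    ∃ n ∈ Subgroup.normalizer ((P : Subgroup H) : Set H), ConjBy f φ η n := by
  haveI := hn
  haveI := Fintype.ofFinite H
  haveI := Fintype.ofFinite U
  haveI := Fintype.ofFinite f.range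
  have hker : ∀ ξ : U →* ℂˣ, f.ker ≤ ξ.ker := fun ξ => by
    rw [(MonoidHom.ker_eq_bot_iff f).2 hf]; exact bot_le
  obtain ⟨φM, hφM⟩ := exists_hom_range f φ (hker φ)
  obtain ⟨ηM, hηM⟩ := exists_hom_range f η (hker η)
  obtain ⟨g, hg⟩ := CfsgLib.Clifford.exists_conj_of_constituents f.range hχ
    (isIrrCharacter_linear φM) (isIrrCharacter_linear ηM)
    ((overHom_iff_range f rfl φ _ (fun v h => by rw [← hφM v h]) χ).1 hφ)
    ((overHom_iff_range f rfl η _ (fun v h => by rw [← hηM v h]) χ).1 hη)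
  -- `η` is the conjugate of `φ`
  have hgc : ConjBy f η φ g := fun v w hw => by
    have h := congrFun hg (f.rangeRestrict v)
    rw [CfsgLib.Clifford.conjChar_eq_comp] at h
    simp only [show MulAut.conjNormal g (f.rangeRestrict v) = f.rangeRestrict w from
      Subtype.ext (by rw [MulAut.conjNormal_apply]; exact hw.symm)] at h
    rw [show ηM (f.rangeRestrict v) = η v from hηM v _,
      show φM (f.rangeRestrict w) = φ w from hφM w _] at h
    exact (Units.ext h).symm
  have hTc : ∀ x, x ∈ inertia f.range (fun m => (φM m : ℂ)) ↔ ConjBy f φ φ x := fun x =>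
    (conjBy_self_iff_mem_inertia f φ φM hφM x).symm
  obtain ⟨t, ht, htn⟩ := exists_mem_mul_normalizer P (inertia f.range (fun m => (φM m : ℂ)))
    (g := g) (fun p hp => (hTc p).2 (hφP p hp)) (by
      intro x hx
      have hx' := CfsgLib.CoprimeAction.mem_conj_iff.1 hx
      have := ((hgc.symm.trans hn (hηP _ hx')).trans hn hgc)
      rw [show g * (g⁻¹ * x * g * g⁻¹) = x by group] at this
      exact (hTc x).2 this)
  refine ⟨(t * g)⁻¹, inv_mem htn, ?_⟩
  rw [mul_inv_rev]
  exact ((hTc t).1 ht).symm.trans hn hgc.symm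

/-- Below a linear constituent, an element acting by a scalar takes that value. -/
theorem eq_of_scalar [Finite V] (f : V →* H) (φ : V →* ℂˣ) {χ : H → ℂ} (hφ : OverHom f φ χ)
    (w : V) (c : ℂ) (hc : ∀ x, χ (f w * x) = c * χ x) : (φ w : ℂ) = c := by
  haveI := Fintype.ofFinite V
  rw [OverHom, finsum_eq_sum_of_fintype] at hφ
  have key : ∑ v : V, χ (f v) * conj (φ v : ℂ) =
      c * conj (φ w : ℂ) * ∑ v : V, χ (f v) * conj (φ v : ℂ) := by
    conv_lhs => rw [← Equiv.sum_comp (Equiv.mulLeft w)]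
    rw [Finset.mul_sum]
    refine Finset.sum_congr rfl fun v _ => ?_
    simp only [Equiv.coe_mulLeft, map_mul, Units.val_mul, hc]
    ring
  have h1 : c * conj (φ w : ℂ) = 1 :=
    mul_right_cancel₀ hφ (key.symm.trans (one_mul _).symm)
  rw [CfsgLib.ZerosCodegree.conj_hom_eq_inv] at h1
  calc (φ w : ℂ) = (c * ((φ w)⁻¹ : ℂˣ)) * φ w := by rw [h1, one_mul]
    _ = c := by rw [mul_assoc, Units.inv_mul, mul_one]

instance finite_hom_units [Finite V] : Finite (V →* ℂˣ) :=
  Finite.of_equiv _ (linearEquivHom (G := V))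

open scoped Classical in
/-- The partition of the odd-degree characters over a central linear character by their fixed
constituents on a larger normal `2`-group. -/
theorem card_oddOver_eq_sum [Finite H] [Finite U] [Finite V] {N₀ : Type*} [Group N₀]
    (b : Bool) (P : Sylow 2 H) (ι : N₀ →* H)
    (hrange : ι.range = Subgroup.normalizer ((P : Subgroup H) : Set H))
    (fU : U →* H) (hfU : Function.Injective fU) (hn : fU.range.Normal) (hU : IsPGroup 2 U)
    (g : V →* U) (θ : V →* ℂˣ) (hz : ∀ v, fU (g v) ∈ Subgroup.center H)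
    [Fintype (U →* ℂˣ)] :
    (Nat.card (OddOver b (fU.comp g) θ) : ℚ) =
      ∑ φ ∈ Finset.univ.filter (fun φ : U →* ℂˣ => RealIf b (fun u => (φ u : ℂ)) ∧
          (∀ p ∈ (P : Subgroup H), ConjBy fU φ φ p) ∧ φ.comp g = θ),
        (Nat.card (OddOver b fU φ) : ℚ) /
          Nat.card {η : U →* ℂˣ // ∃ n : N₀, ConjBy fU φ η (ι n)} := by
  haveI := Fintype.ofFinite H
  haveI := Fintype.ofFinite U
  haveI := Fintype.ofFinite V
  haveI := Fintype.ofFinite (IrrCharacter H)
  have hlin : ∀ ψ : IrrCharacter U, Odd (charDegree (ψ : U → ℂ)) → charDegree (ψ : U → ℂ) = 1 := by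
    intro ψ hψ
    obtain ⟨k, hk⟩ := IsPGroup.iff_card.1 hU
    have h := CfsgLib.ZerosCodegree.charDegree_dvd_card ψ
    rw [hk] at h
    obtain ⟨j, -, hj⟩ := (Nat.dvd_prime_pow Nat.prime_two).1 h
    rcases j with _ | j
    · rw [hj, pow_zero]
    · exact absurd (hj ▸ hψ) (by simp [parity_simps])
  -- the fixed constituents on `U` determine `θ`
  have hscal : ∀ χ : IrrCharacter H, ∀ v, ∃ c : ℂ, ∀ x,
      (χ : H → ℂ) (fU (g v) * x) = c * (χ : H → ℂ) x := fun χ v => by
    obtain ⟨c, -, hc⟩ := exists_scalar_center χ.2 (hz v)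
    exact ⟨c, hc⟩
  have hoverθ : ∀ (χ : IrrCharacter H) (φ : U →* ℂˣ), OverHom fU φ (χ : H → ℂ) →
      (OverHom (fU.comp g) θ (χ : H → ℂ) ↔ φ.comp g = θ) := by
    intro χ φ hφ
    choose c hc using hscal χ
    have hval : ∀ v, (φ (g v) : ℂ) = c v := fun v => eq_of_scalar fU φ hφ (g v) (c v) (hc v)
    constructor
    · intro h
      refine MonoidHom.ext fun v => Units.ext ?_
      show (φ (g v) : ℂ) = θ v
      rw [hval, eq_of_scalar (fU.comp g) θ h v (c v) (hc v)]
    · intro h
      rw [OverHom, finsum_eq_sum_of_fintype, Finset.sum_congr rfl (g := fun _ => (χ : H → ℂ) 1)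
        fun v _ => ?_, Finset.sum_const, Finset.card_univ, nsmul_eq_mul]
      · exact mul_ne_zero (Nat.cast_ne_zero.2 Fintype.card_ne_zero) (apply_one_ne_zero_of_isIrr χ.2)
      · show (χ : H → ℂ) (fU (g v)) * conj (θ v : ℂ) = _
        have h1 := hc v 1
        rw [mul_one] at h1
        rw [h1, ← hval, ← h, MonoidHom.comp_apply, CfsgLib.ZerosCodegree.conj_hom_eq_inv,
          mul_comm, ← mul_assoc, Units.inv_mul, one_mul]
  set Φ := Finset.univ.filter (fun φ : U →* ℂˣ => RealIf b (fun u => (φ u : ℂ)) ∧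
    (∀ p ∈ (P : Subgroup H), ConjBy fU φ φ p) ∧ φ.comp g = θ) with hΦ
  set X := Finset.univ.filter (fun χ : IrrCharacter H => RealIf b (χ : H → ℂ) ∧
    Odd (charDegree (χ : H → ℂ)) ∧ OverHom (fU.comp g) θ (χ : H → ℂ)) with hX
  have hcardX : Nat.card (OddOver b (fU.comp g) θ) = X.card := by
    rw [Nat.card_eq_fintype_card, Fintype.card_subtype]
  have hcardφ : ∀ φ ∈ Φ, Nat.card (OddOver b fU φ) =
      (X.filter fun χ : IrrCharacter H => OverHom fU φ (χ : H → ℂ)).card := by
    intro φ hφ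
    rw [Nat.card_eq_fintype_card, Fintype.card_subtype]
    congr 1
    ext χ
    simp only [hX, Finset.mem_filter, Finset.mem_univ, true_and]
    exact ⟨fun h => ⟨⟨h.1, h.2.1, (hoverθ χ φ h.2.2).2 (Finset.mem_filter.1 hφ).2.2.2⟩, h.2.2⟩,
      fun h => ⟨h.1.1, h.1.2.1, h.2⟩⟩
  rw [hcardX]
  trans ∑ φ ∈ Φ, ∑ χ ∈ X, if OverHom fU φ (χ : H → ℂ) then
    (1 : ℚ) / Nat.card {η : U →* ℂˣ // ∃ n : N₀, ConjBy fU φ η (ι n)} else 0
  swap
  · refine Finset.sum_congr (by ext; simp [hΦ]) fun φ hφ => ?_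
    rw [hcardφ φ (by simpa [hΦ] using hφ), ← Finset.sum_filter, Finset.sum_const, nsmul_eq_mul, mul_one_div]
  rw [Finset.sum_comm, Finset.cast_card]
  refine Finset.sum_congr rfl fun χ hχ => ?_
  simp only [hX, Finset.mem_filter, Finset.mem_univ, true_and] at hχ
  obtain ⟨hχr, hχo, hχθ⟩ := hχ
  -- the fixed constituents of `χ` form one orbit
  set S := Φ.filter (fun φ => OverHom fU φ (χ : H → ℂ)) with hS
  have horb : ∀ φ ∈ S, Nat.card {η : U →* ℂˣ // ∃ n : N₀, ConjBy fU φ η (ι n)} = S.card := by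
    intro φ hφ
    simp only [hS, hΦ, Finset.mem_filter, Finset.mem_univ, true_and] at hφ
    obtain ⟨⟨hφr, hφP, hφθ⟩, hφo⟩ := hφ
    rw [Nat.card_eq_fintype_card, Fintype.card_subtype]
    congr 1
    ext η
    simp only [hS, hΦ, Finset.mem_filter, Finset.mem_univ, true_and]
    constructor
    · rintro ⟨n, hn'⟩
      have hnP : ι n ∈ Subgroup.normalizer ((P : Subgroup H) : Set H) := hrange ▸ ⟨n, rfl⟩
      refine ⟨⟨hn'.realIf hn hφr, fun p hp => ?_, ?_⟩,
        hφo.conjBy hfU hn hn' (IsIrrCharacter.isClassFunction χ.2)⟩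
      · have h1 := (hn'.symm.trans hn (hφP _ ((Subgroup.mem_normalizer_iff.1
          (inv_mem hnP) p).1 hp))).trans hn hn'
        simp only [inv_inv] at h1
        rwa [show ι n * ((ι n)⁻¹ * p * ι n * (ι n)⁻¹) = p by group] at h1
      · refine MonoidHom.ext fun v => ?_
        rw [← hφθ]
        exact hn' (g v) (g v) (by rw [Subgroup.mem_center_iff.1 (hz v) (ι n)]; group)
    · rintro ⟨⟨hηr, hηP, hηθ⟩, hηo⟩
      obtain ⟨m, hm, hmc⟩ := exists_normalizer_conjBy P fU hfU hn hφP hηP χ.2 hφo hηo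
      obtain ⟨n, rfl⟩ : m ∈ ι.range := hrange ▸ hm
      exact ⟨n, hmc⟩
  obtain ⟨φ₀, hφ₀r, hφ₀P, hφ₀o⟩ :=
    exists_fixed_constituent b (P : Subgroup H) P.2 fU hfU hn hlin χ.2 hχr hχo
  have hne : φ₀ ∈ S := by
    simp only [hS, hΦ, Finset.mem_filter, Finset.mem_univ, true_and]
    exact ⟨⟨hφ₀r, hφ₀P, (hoverθ χ φ₀ hφ₀o).1 hχθ⟩, hφ₀o⟩
  rw [← Finset.sum_filter, ← hS, Finset.sum_congr rfl (g := fun _ => (1 : ℚ) / S.card)
    fun φ hφ => by rw [horb φ hφ], Finset.sum_const, nsmul_eq_mul, mul_one_div_cancel]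
  exact Nat.cast_ne_zero.2 (Finset.card_ne_zero_of_mem hne)

/-- Odd-degree characters are trivial on an odd abelian normal subgroup, if real, or if no
nontrivial element of the subgroup is fixed by the Sylow `2`-subgroup. -/
theorem apply_eq_apply_one_of_odd_normal [Finite H] (b : Bool) (P : Subgroup H) (hP : IsPGroup 2 P)
    (Q : Subgroup H) [Q.Normal] (hQ : Odd (Nat.card Q))
    (hab : ∀ x ∈ Q, ∀ y ∈ Q, x * y = y * x)
    (hfix : b = false → ∀ q ∈ Q, (∀ p ∈ P, p * q * p⁻¹ = q) → q = 1)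
    {χ : H → ℂ} (hχ : IsIrrCharacter H χ) (hreal : RealIf b χ) (hodd : Odd (charDegree χ))
    {q : H} (hq : q ∈ Q) : χ q = χ 1 := by
  haveI := Fintype.ofFinite Q
  haveI := Fintype.ofFinite P
  have hlin : ∀ ψ : IrrCharacter Q, Odd (charDegree (ψ : Q → ℂ)) → charDegree (ψ : Q → ℂ) = 1 := by
    intro ψ _
    refine charDegree_eq_one_of_commutator_le ψ.2 ?_
    rw [show commutator Q = ⊥ from ?_]
    · exact bot_le
    · rw [eq_bot_iff, commutator_def, Subgroup.commutator_le]
      intro x _ y _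
      rw [Subgroup.mem_bot, commutatorElement_eq_one_iff_mul_comm]
      exact Subtype.ext (hab _ x.2 _ y.2)
  obtain ⟨φ, hφr, hφP, hφo⟩ := exists_fixed_constituent b P hP Q.subtype Q.subtype_injective
    (by rwa [Subgroup.range_subtype]) hlin hχ hreal hodd
  have hone : φ = 1 := by
    refine MonoidHom.ext fun x => ?_
    show φ x = 1
    have hoQ : orderOf (φ x) ∣ Nat.card Q := (orderOf_map_dvd φ x).trans (orderOf_dvd_natCard x)
    rw [← orderOf_eq_one_iff]
    cases b with
    | true =>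
      have h1 : (φ x : ℂ) * φ x = 1 := by
        have h2 := CfsgLib.ZerosCodegree.conj_hom_eq_inv φ x
        rw [Complex.conj_eq_iff_im.2 (show ((φ x : ℂˣ) : ℂ).im = 0 from hφr rfl x)] at h2
        nth_rewrite 1 [h2]
        exact Units.inv_mul _
      refine Nat.eq_one_of_dvd_coprimes (Nat.coprime_two_left.2 hQ) ?_ hoQ
      rw [orderOf_dvd_iff_pow_eq_one, pow_two]
      exact Units.ext h1
    | false =>
      obtain ⟨k, hk⟩ := IsPGroup.iff_card.1 hP
      refine Nat.eq_one_of_dvd_coprimes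
        ((Nat.coprime_two_left.2 hQ).pow_left k) ?_ hoQ
      rw [orderOf_dvd_iff_pow_eq_one, ← hk, Nat.card_eq_fintype_card]
      letI : CommGroup Q := { (inferInstance : Group Q) with
        mul_comm := fun a c => Subtype.ext (hab _ a.2 _ c.2) }
      set z : Q := ∏ p : P, MulAut.conjNormal (p : H) x with hz
      have hz1 : z = 1 := by
        refine Subtype.ext (hfix rfl _ z.2 fun p hp => ?_)
        rw [← MulAut.conjNormal_apply, hz, map_prod]
        exact congrArg Subtype.val (Fintype.prod_equiv (Equiv.mulLeft (⟨p, hp⟩ : P)) _ _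
          fun r => by rw [← MulAut.mul_apply, ← map_mul]; rfl)
      have h : φ z = φ x ^ Fintype.card P := by
        rw [hz, map_prod, Finset.prod_congr rfl fun (p : P) _ =>
          hφP (p : H) p.2 x (MulAut.conjNormal (p : H) x) (MulAut.conjNormal_apply _ _),
          Finset.prod_const, Finset.card_univ]
      rw [← h, hz1, map_one]
  refine CfsgLib.ZerosCodegree.apply_eq_one_of_sum_ne_zero ⟨χ, hχ⟩ Q ?_ hq
  rw [hone, OverHom, finsum_eq_sum_of_fintype] at hφo
  simpa using hφo

end CfsgLib.Correspondences
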