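import Mathlib
import Cfsg.Agent.Lib.Correspondences.OddDegreeConstituents
import Cfsg.Agent.Lib.Correspondences.SeparableStab

/-!
In a solvable group the real characters of odd degree are counted by the Sylow `2`-normalizer, and
all characters of odd degree when the Sylow `2`-subgroup is self-normalizing.
-/

set_option autoImplicit false
set_option linter.style.haveILetI false
set_option linter.unusedSectionVars false

open Cfsg CfsgLib.CharTheory
open scoped ComplexConjugate Pointwise

namespace CfsgLib.Correspondences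

universe u

/-- A nontrivial solvable group has a nontrivial normal abelian subgroup of prime exponent. -/
theorem exists_normal_elementary {G : Type*} [Group G] [Finite G] [Group.IsSolvable G]
    [Nontrivial G] :
    ∃ (A : Subgroup G) (r : ℕ), r.Prime ∧ A.Normal ∧ A ≠ ⊥ ∧
      (∀ x ∈ A, ∀ y ∈ A, x * y = y * x) ∧ ∀ x ∈ A, x ^ r = 1 := by
  classical
  obtain ⟨n, hn⟩ := (Group.isSolvable_def G).1 inferInstance
  have hex : ∃ n, derivedSeries G n = ⊥ := ⟨n, hn⟩
  set k := Nat.find hex with hk
  have hk0 : k ≠ 0 := fun h => by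
    have := Nat.find_spec hex
    rw [← hk, h, derivedSeries_zero] at this
    exact top_ne_bot this
  set D := derivedSeries G (k - 1) with hD
  have hDne : D ≠ ⊥ := Nat.find_min hex (show k - 1 < k by omega)
  have hab : ∀ x ∈ D, ∀ y ∈ D, x * y = y * x := by
    intro x hx y hy
    have h := Nat.find_spec hex
    rw [← hk, show k = k - 1 + 1 by omega, derivedSeries_succ, ← hD] at h
    rw [← commutatorElement_eq_one_iff_mul_comm, ← Subgroup.mem_bot, ← h]
    exact Subgroup.commutator_mem_commutator hx hy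
  obtain ⟨r, hr, hrd⟩ := Nat.exists_prime_and_dvd
    (show Nat.card D ≠ 1 from fun h => hDne ((Subgroup.card_eq_one).1 h))
  haveI := Fact.mk hr
  obtain ⟨x, hx⟩ := exists_prime_orderOf_dvd_card' r hrd
  let A : Subgroup G :=
    { carrier := {a | a ∈ D ∧ a ^ r = 1}
      one_mem' := ⟨one_mem D, one_pow r⟩
      mul_mem' := fun {a c} ha hc => ⟨mul_mem ha.1 hc.1, by
        rw [(show Commute a c from hab a ha.1 c hc.1).mul_pow, ha.2, hc.2, one_mul]⟩
      inv_mem' := fun {a} ha => ⟨inv_mem ha.1, by rw [inv_pow, ha.2, inv_one]⟩ }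
  refine ⟨A, r, hr, ⟨fun a ha g => ⟨?_, ?_⟩⟩, fun h => ?_, fun a ha c hc => hab a ha.1 c hc.1,
    fun a ha => ha.2⟩
  · exact (derivedSeries_normal G (k - 1)).conj_mem a ha.1 g
  · rw [conj_pow, ha.2, mul_one, mul_inv_cancel]
  · have hxA : (x : G) ∈ A := ⟨x.2, by
      rw [← Subgroup.coe_pow, ← hx, pow_orderOf_eq_one, Subgroup.coe_one]⟩
    rw [h, Subgroup.mem_bot] at hxA
    rw [show x = 1 from Subtype.ext hxA, orderOf_one] at hx
    exact hr.ne_one hx.symm

/-- The normalizer of a Sylow subgroup maps onto the normalizer of its image. -/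
theorem map_normalizer_sylow {G H : Type*} [Group G] [Finite G] [Group H] {p : ℕ} [Fact p.Prime]
    (P : Sylow p G) (q : G →* H) (hq : Function.Surjective q) :
    (Subgroup.normalizer ((P : Subgroup G) : Set G)).map q =
      Subgroup.normalizer (((P : Subgroup G).map q : Subgroup H) : Set H) := by
  refine le_antisymm (Subgroup.le_normalizer_map q) fun h hh => ?_
  obtain ⟨g, rfl⟩ := hq h
  set T := ((P : Subgroup G).map q).comap q with hT
  have h1 : (P : Subgroup G) ≤ T := Subgroup.le_comap_map q _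
  have h2 : MulAut.conj g • (P : Subgroup G) ≤ T := by
    intro x hx
    have hx' := CfsgLib.CoprimeAction.mem_conj_iff.1 hx
    rw [hT, Subgroup.mem_comap]
    have h3 := (Subgroup.mem_normalizer_iff.1 hh (q (g⁻¹ * x * g))).1 ⟨_, hx', rfl⟩
    rwa [← map_inv, ← map_mul, ← map_mul, show g * (g⁻¹ * x * g) * g⁻¹ = x by group] at h3
  obtain ⟨t, ht, htn⟩ := exists_mem_mul_normalizer P T h1 h2
  obtain ⟨p₀, hp₀, hp₀e⟩ := (Subgroup.mem_comap.1 (hT ▸ ht : t ∈ ((P : Subgroup G).map q).comap q))
  refine ⟨p₀⁻¹ * (t * g), mul_mem (Subgroup.le_normalizer (inv_mem hp₀)) htn, ?_⟩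
  rw [map_mul, map_inv, map_mul, hp₀e, inv_mul_cancel_left]

/-- A normal `2`-group lies in every Sylow `2`-subgroup. -/
theorem le_sylow_of_normal {G : Type*} [Group G] [Finite G] (P : Sylow 2 G) (K : Subgroup G)
    [K.Normal] (hK : IsPGroup 2 K) : K ≤ (P : Subgroup G) := by
  have h := P.is_maximal' (IsPGroup.to_sup_of_normal_right P.2 hK) le_sup_left
  exact le_sup_right.trans h.le

/-- An invariant character below forces its kernel into the kernel above. -/
theorem apply_eq_apply_one_of_invariant {H V : Type*} [Group H] [Group V] [Finite H] [Finite V]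
    (f : V →* H) (θ : V →* ℂˣ) (hn : f.range.Normal) (hker : f.ker ≤ θ.ker)
    (hinv : ∀ g, ConjBy f θ θ g) {χ : H → ℂ} (hχ : IsIrrCharacter H χ) (hover : OverHom f θ χ)
    {v : V} (hv : θ v = 1) : χ (f v) = χ 1 := by
  haveI := hn
  haveI := Fintype.ofFinite H
  haveI := Fintype.ofFinite V
  haveI := Fintype.ofFinite f.range
  obtain ⟨θM, hθM⟩ := exists_hom_range f θ hker
  have h := CfsgLib.Clifford.res_eq_of_invariant f.range hχ (isIrrCharacter_linear θM)
    (fun g => (mem_inertia _ _ _).1 ((conjBy_self_iff_mem_inertia f θ θM hθM g).1 (hinv g)))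
    ((overHom_iff_range f rfl θ _ (fun v h => by rw [← hθM v h]) χ).1 hover)
  have h1 := congrFun h (f.rangeRestrict v)
  have h2 := congrFun h 1
  simp only [Pi.smul_apply, map_one, show θM (f.rangeRestrict v) = θ v from hθM v _, hv,
    OneMemClass.coe_one] at h1 h2
  exact h1.trans h2.symm

/-- The Sylow `2`-subgroup of the group mapping onto the normalizer. -/
theorem exists_sylow_comap {G N₀ : Type*} [Group G] [Finite G] [Group N₀] (P : Sylow 2 G)
    (ι : N₀ →* G) (hι : Function.Injective ι)
    (hrange : ι.range = Subgroup.normalizer ((P : Subgroup G) : Set G)) :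
    ∃ P' : Sylow 2 N₀, (∀ x, x ∈ (P' : Subgroup N₀) ↔ ι x ∈ (P : Subgroup G)) ∧
      (P' : Subgroup N₀).Normal := by
  refine ⟨P.comapOfInjective ι hι (hrange ▸ Subgroup.le_normalizer), fun x => Iff.rfl,
    ⟨fun x hx n => ?_⟩⟩
  have hn : ι n ∈ Subgroup.normalizer ((P : Subgroup G) : Set G) := hrange ▸ ⟨n, rfl⟩
  show ι (n * x * n⁻¹) ∈ (P : Subgroup G)
  rw [map_mul, map_mul, map_inv]
  exact (Subgroup.mem_normalizer_iff.1 hn (ι x)).1 hx

theorem card_oddOver_eq_normalizer_aux (b : Bool) : ∀ n m : ℕ, ∀ {G N₀ V : Type u} [Group G]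
    [Finite G] [Group N₀] [Finite N₀] [Group V] [Finite V] [Group.IsSolvable G],
    Nat.card G = n → ∀ (P : Sylow 2 G) (ι : N₀ →* G), Function.Injective ι →
    ι.range = Subgroup.normalizer ((P : Subgroup G) : Set G) → ∀ fN : V →* N₀,
    (ι.comp fN).range.Normal → (ι.comp fN).range.index = m → IsPGroup 2 V → ∀ θ : V →* ℂˣ,
    (ι.comp fN).ker ≤ θ.ker → (∀ p ∈ (P : Subgroup G), ConjBy (ι.comp fN) θ θ p) →
    RealIf b (fun v => (θ v : ℂ)) → (b = false → ι.range = (P : Subgroup G)) →
    Nat.card (OddOver b (ι.comp fN) θ) = Nat.card (OddOver b fN θ) := by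
  intro n
  induction n using Nat.strong_induction_on with
  | _ n IH =>
  intro m
  induction m using Nat.strong_induction_on with
  | _ m IHm =>
  intro G N₀ V _ _ _ _ _ _ _ hn P ι hι hrange fN hnorm hidx hV θ hker hPinv hθ hb
  classical
  set f := ι.comp fN with hf
  have hR2 : IsPGroup 2 f.range := hV.of_surjective f.rangeRestrict f.rangeRestrict_surjective
  by_cases htop : f.range = ⊤
  · have hsurj : Function.Surjective ι := fun g => by
      obtain ⟨v, hv⟩ : g ∈ f.range := htop ▸ Subgroup.mem_top g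
      exact ⟨fN v, hv⟩
    refine (card_oddOver_of_surjective b fN θ ι hsurj fun χ k hk => ?_).symm
    rw [(MonoidHom.ker_eq_bot_iff ι).2 hι, Subgroup.mem_bot] at hk
    rw [hk]
  haveI := hnorm
  have hnormN : fN.range.Normal := by
    have h : fN.range = f.range.comap ι := by
      rw [hf, MonoidHom.range_comp, Subgroup.comap_map_eq_self_of_injective hι]
    rw [h]
    exact hnorm.comap ι
  have hkerN : fN.ker ≤ θ.ker := fun v hv => hker (by
    rw [MonoidHom.mem_ker, hf, MonoidHom.comp_apply, MonoidHom.mem_ker.1 hv, map_one])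
  obtain ⟨P', hP', hP'n⟩ := exists_sylow_comap P ι hι hrange
  haveI := hP'n
  haveI := Fintype.ofFinite G
  haveI := Fintype.ofFinite f.range
  by_cases hinv : ∀ g, ConjBy f θ θ g
  swap
  · -- the stabilizer is proper
    obtain ⟨θM, hθM⟩ := exists_hom_range f θ hker
    set T := inertia f.range (fun m => (θM m : ℂ)) with hTdef
    have hT : ∀ g, g ∈ T ↔ ConjBy f θ θ g := fun g =>
      (conjBy_self_iff_mem_inertia f θ θM hθM g).symm
    have hPT : (P : Subgroup G) ≤ T := fun p hp => (hT p).2 (hPinv p hp)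
    have hTne : T ≠ ⊤ := fun h => hinv fun g => (hT g).1 (h ▸ Subgroup.mem_top g)
    have hlt : Nat.card T < n := hn ▸ lt_of_le_of_ne (Subgroup.card_le_card_group T)
      fun h => hTne (Subgroup.card_eq_iff_eq_top T |>.1 h)
    have hfT : ∀ v, f v ∈ T := fun v => by
      rw [hT]
      intro a c hac
      have h1 : θ (v * a * v⁻¹) = θ a := by
        rw [map_mul, map_mul, mul_comm (θ v), mul_assoc, ← map_mul, mul_inv_cancel, map_one, mul_one]
      have h2 : θ (c * (v * a * v⁻¹)⁻¹) = 1 := MonoidHom.mem_ker.1 (hker (by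
        rw [MonoidHom.mem_ker, map_mul, map_inv, hac, map_mul, map_mul, map_inv, mul_inv_cancel]))
      rw [map_mul, map_inv, h1, mul_inv_eq_one] at h2
      exact h2
    let fT : V →* T := f.codRestrict T hfT
    let fN' : V →* T.comap ι := fN.codRestrict _ fun v => hfT v
    have hoddT : Odd T.index :=
      (Nat.odd_iff.2 (Nat.two_dvd_ne_zero.1 P.not_dvd_index)).of_dvd_nat
        (Subgroup.index_dvd_of_le hPT)
    have hPT' : (P' : Subgroup N₀) ≤ T.comap ι := fun x hx => hPT ((hP' x).1 hx)
    have hoddT' : Odd (T.comap ι).index :=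
      (Nat.odd_iff.2 (Nat.two_dvd_ne_zero.1 P'.not_dvd_index)).of_dvd_nat
        (Subgroup.index_dvd_of_le hPT')
    rw [card_oddOver_inertia b f θ hnorm hker hθ T hT hoddT fT (MonoidHom.ext fun _ => rfl),
      card_oddOver_inertia b fN θ hnormN hkerN hθ (T.comap ι)
        (fun g => by rw [Subgroup.mem_comap, hT, hf, ConjBy.comp_iff ι hι]) hoddT' fN'
        (MonoidHom.ext fun _ => rfl)]
    let ι' : T.comap ι →* T := ι.subgroupComap T
    have hι' : Function.Injective ι' := fun a c h => Subtype.ext (hι (congrArg Subtype.val h))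
    have hrange' : ι'.range =
        Subgroup.normalizer (((P.subtype hPT : Sylow 2 T) : Subgroup T) : Set T) := by
      rw [Sylow.coe_subtype, ← Subgroup.subgroupOf_normalizer_eq hPT, ← hrange]
      ext t
      rw [Subgroup.mem_subgroupOf]
      constructor
      · rintro ⟨x, rfl⟩; exact ⟨x, rfl⟩
      · rintro ⟨x, hx⟩
        exact ⟨⟨x, by rw [Subgroup.mem_comap, hx]; exact t.2⟩, Subtype.ext hx⟩
    have hcomp : ι'.comp fN' = fT := MonoidHom.ext fun _ => rfl
    have hfTker : fT.ker ≤ θ.ker := fun v hv => hker (by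
      rw [MonoidHom.mem_ker] at hv ⊢
      exact congrArg Subtype.val hv)
    have hrangeT : fT.range = f.range.subgroupOf T := by
      ext t
      rw [Subgroup.mem_subgroupOf]
      exact ⟨fun ⟨v, hv⟩ => ⟨v, congrArg Subtype.val hv⟩, fun ⟨v, hv⟩ => ⟨v, Subtype.ext hv⟩⟩
    have key := IH (Nat.card T) hlt (ι'.comp fN').range.index rfl (P.subtype hPT) ι' hι' hrange'
      fN' (by rw [hcomp, hrangeT]; infer_instance) rfl hV θ (hcomp ▸ hfTker)
      (fun p hp v w hvw => hPinv (p : G) hp v w (congrArg Subtype.val hvw)) hθ (fun h => by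
        rw [Sylow.coe_subtype]
        ext t
        rw [Subgroup.mem_subgroupOf, ← hb h]
        constructor
        · rintro ⟨x, rfl⟩; exact ⟨x, rfl⟩
        · rintro ⟨x, hx⟩
          exact ⟨⟨x, by rw [Subgroup.mem_comap, hx]; exact t.2⟩, Subtype.ext hx⟩)
    rwa [hcomp] at key
  -- from here on the character is invariant; reduction modulo a normal subgroup killed by both
  have quot : ∀ (K : Subgroup G) [K.Normal], K ≠ ⊥ → (∀ v, f v ∈ K → θ v = 1) →
      (∀ χ : OddOver b f θ, ∀ k ∈ K, (χ.1 : G → ℂ) k = (χ.1 : G → ℂ) 1) →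
      (∀ χ : OddOver b fN θ, ∀ k, ι k ∈ K → (χ.1 : N₀ → ℂ) k = (χ.1 : N₀ → ℂ) 1) →
      Nat.card (OddOver b f θ) = Nat.card (OddOver b fN θ) := by
    intro K _ hK hKθ hkill hkillN
    set q := QuotientGroup.mk' K with hq
    set qN := QuotientGroup.mk' (K.comap ι) with hqN
    have hqs := QuotientGroup.mk'_surjective K
    rw [card_oddOver_of_surjective b f θ q hqs (by rw [hq, QuotientGroup.ker_mk']; exact hkill),
      card_oddOver_of_surjective b fN θ qN (QuotientGroup.mk'_surjective _)
        (by rw [hqN, QuotientGroup.ker_mk']; exact hkillN)]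
    let ι' : N₀ ⧸ K.comap ι →* G ⧸ K := QuotientGroup.map _ _ ι le_rfl
    have hι' : Function.Injective ι' := by
      rw [← MonoidHom.ker_eq_bot_iff, QuotientGroup.ker_map, QuotientGroup.map_mk'_self]
    have hcard : Nat.card (G ⧸ K) < n := by
      rw [← hn, ← Subgroup.index_eq_card, ← Subgroup.card_mul_index K]
      exact lt_mul_left (Nat.pos_of_ne_zero Subgroup.index_ne_zero_of_finite)
        (Subgroup.one_lt_card_iff_ne_bot K |>.2 hK)
    have hrange' : ι'.range = ι.range.map q := by
      ext x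
      constructor
      · rintro ⟨y, rfl⟩
        obtain ⟨y, rfl⟩ := QuotientGroup.mk'_surjective _ y
        exact ⟨ι y, ⟨y, rfl⟩, rfl⟩
      · rintro ⟨_, ⟨y, rfl⟩, rfl⟩
        exact ⟨qN y, rfl⟩
    have hcomp : ι'.comp (qN.comp fN) = q.comp f := MonoidHom.ext fun _ => rfl
    have hkq : (q.comp f).ker ≤ θ.ker := fun v hv => by
      rw [MonoidHom.mem_ker, MonoidHom.comp_apply, hq, QuotientGroup.mk'_apply,
        QuotientGroup.eq_one_iff] at hv
      exact MonoidHom.mem_ker.2 (hKθ v hv)
    have key := IH (Nat.card (G ⧸ K)) hcard (ι'.comp (qN.comp fN)).range.index rfl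
      (P.mapSurjective hqs) ι' hι'
      (by rw [hrange', hrange, map_normalizer_sylow P q hqs]; rfl) (qN.comp fN)
      (by rw [hcomp, MonoidHom.range_comp]; exact hnorm.map q hqs) rfl hV θ (hcomp ▸ hkq)
      (fun x _ v w hvw => by
        obtain ⟨g, rfl⟩ := hqs x
        change q (f w) = q g * q (f v) * (q g)⁻¹ at hvw
        obtain ⟨u, hu⟩ := hnorm.conj_mem (f v) ⟨v, rfl⟩ g
        rw [← hinv g v u hu]
        have hmem : f (w * u⁻¹) ∈ K := by
          rw [← QuotientGroup.eq_one_iff, ← QuotientGroup.mk'_apply, map_mul, map_mul, map_inv,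
            map_inv, hvw, hu, map_mul, map_mul, map_inv, mul_inv_cancel]
        have h := hKθ _ hmem
        rwa [map_mul, map_inv, mul_inv_eq_one] at h) hθ
      (fun h => by rw [hrange', hb h]; rfl)
    rwa [hcomp] at key
  -- the kernel of `θ`
  set K := θ.ker.map f with hKdef
  by_cases hK : K = ⊥
  swap
  · haveI : K.Normal := ⟨by
      rintro _ ⟨v, hv, rfl⟩ g
      obtain ⟨w, hw⟩ := hnorm.conj_mem (f v) ⟨v, rfl⟩ g
      exact ⟨w, MonoidHom.mem_ker.2 ((hinv g v w hw).trans (MonoidHom.mem_ker.1 hv)), hw⟩⟩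
    refine quot K hK (fun v hv => ?_) (fun χ k hk => ?_) fun χ k hk => ?_
    · obtain ⟨u, hu, huv⟩ := hv
      have h : θ (u⁻¹ * v) = 1 := MonoidHom.mem_ker.1 (hker (by
        rw [MonoidHom.mem_ker, map_mul, map_inv, huv, inv_mul_cancel]))
      rwa [map_mul, map_inv, MonoidHom.mem_ker.1 hu, inv_one, one_mul] at h
    · obtain ⟨v, hv, rfl⟩ := hk
      exact apply_eq_apply_one_of_invariant f θ hnorm hker hinv χ.1.2 χ.2.2.2
        (MonoidHom.mem_ker.1 hv)
    · obtain ⟨v, hv, hvk⟩ := hk
      rw [← show fN v = k from hι hvk]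
      exact apply_eq_apply_one_of_invariant fN θ hnormN hkerN
        (fun g => (ConjBy.comp_iff ι hι).1 (hinv (ι g))) χ.1.2 χ.2.2.2 (MonoidHom.mem_ker.1 hv)
  -- now the image is central
  have hθinj : ∀ v, θ v = 1 → f v = 1 := fun v hv => by
    rw [← Subgroup.mem_bot, ← hK]; exact ⟨v, MonoidHom.mem_ker.2 hv, rfl⟩
  have hcentral : ∀ v, f v ∈ Subgroup.center G := fun v => Subgroup.mem_center_iff.2 fun g => by
    obtain ⟨w, hw⟩ := hnorm.conj_mem (f v) ⟨v, rfl⟩ g
    have h := hθinj (w * v⁻¹) (by rw [map_mul, map_inv, hinv g v w hw, mul_inv_cancel])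
    rw [map_mul, map_inv, mul_inv_eq_one, hw] at h
    exact mul_inv_eq_iff_eq_mul.1 h
  haveI : Nontrivial (G ⧸ f.range) := QuotientGroup.nontrivial_iff.2 htop
  obtain ⟨A, r, hr, hAn, hAne, hAab, hAr⟩ := exists_normal_elementary (G := G ⧸ f.range)
  haveI := Fact.mk hr
  set U := A.comap (QuotientGroup.mk' f.range) with hU
  haveI : U.Normal := hAn.comap _
  have hRU : f.range ≤ U := fun x hx => by
    rw [hU, Subgroup.mem_comap, QuotientGroup.mk'_apply, (QuotientGroup.eq_one_iff x).2 hx]
    exact one_mem A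
  have hUR : ∀ x ∈ U, x ^ r ∈ f.range := fun x hx => by
    rw [← QuotientGroup.eq_one_iff, QuotientGroup.mk_pow]
    exact hAr _ hx
  have hlt : f.range < U := lt_of_le_of_ne hRU fun h => hAne <| by
    rw [eq_bot_iff]
    intro a ha
    obtain ⟨x, rfl⟩ := QuotientGroup.mk'_surjective _ a
    rw [Subgroup.mem_bot, QuotientGroup.mk'_apply, QuotientGroup.eq_one_iff, h]
    exact ha
  by_cases hr2 : r = 2
  · -- a larger normal `2`-group
    subst hr2
    have hU2 : IsPGroup 2 U := fun x => by
      obtain ⟨k, hk⟩ := hR2 ⟨(x : G) ^ 2, hUR x x.2⟩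
      exact ⟨1 + k, Subtype.ext (by
        rw [Subgroup.coe_pow, pow_add, pow_one, pow_mul]
        exact congrArg Subtype.val hk)⟩
    have hUN : U ≤ ι.range := (le_sylow_of_normal P U hU2).trans (hrange ▸ Subgroup.le_normalizer)
    let fNU : U →* N₀ := (MonoidHom.ofInjective hι).symm.toMonoidHom.comp (Subgroup.inclusion hUN)
    have hcompU : ι.comp fNU = U.subtype := MonoidHom.ext fun x => by
      show ι ((MonoidHom.ofInjective hι).symm _) = _
      rw [← MonoidHom.ofInjective_apply hι, MulEquiv.apply_symm_apply]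
      rfl
    let g : V →* U := f.codRestrict U fun v => hRU ⟨v, rfl⟩
    have hg : U.subtype.comp g = f := MonoidHom.ext fun _ => rfl
    have hgN : fNU.comp g = fN := MonoidHom.ext fun v => hι (by
      rw [← MonoidHom.comp_apply, ← MonoidHom.comp_assoc, hcompU, hg]
      rfl)
    haveI := Fintype.ofFinite (U →* ℂˣ)
    have hnU : U.subtype.range.Normal := by rw [Subgroup.range_subtype]; infer_instance
    have hfNUinj : Function.Injective fNU := fun a c h => Subtype.ext (by
      have := congrArg ι h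
      rwa [← MonoidHom.comp_apply, ← MonoidHom.comp_apply, hcompU] at this)
    have hnNU : fNU.range.Normal := by
      rw [show fNU.range = U.comap ι from
        calc fNU.range = (fNU.range.map ι).comap ι :=
              (Subgroup.comap_map_eq_self_of_injective hι _).symm
          _ = U.subtype.range.comap ι := by rw [← MonoidHom.range_comp, hcompU]
          _ = U.comap ι := by rw [Subgroup.range_subtype]]
      infer_instance
    have h1 := card_oddOver_eq_sum b P ι hrange U.subtype U.subtype_injective hnU hU2 g θ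
      (fun v => by rw [← MonoidHom.comp_apply, hg]; exact hcentral v)
    have h2 := card_oddOver_eq_sum b P' (MonoidHom.id N₀)
      (by rw [MonoidHom.range_eq_top_of_surjective _ Function.surjective_id, Subgroup.normalizer_eq_top])
      fNU hfNUinj hnNU hU2
      g θ (fun v => Subgroup.mem_center_iff.2 fun x => hι (by
        rw [map_mul, map_mul, ← MonoidHom.comp_apply ι fNU, hcompU, ← MonoidHom.comp_apply, hg]
        exact Subgroup.mem_center_iff.1 (hcentral v) (ι x)))
    rw [hg] at h1
    rw [hgN] at h2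
    have hPeq : ∀ φ : U →* ℂˣ, (∀ p ∈ (P' : Subgroup N₀), ConjBy fNU φ φ p) ↔
        ∀ p ∈ (P : Subgroup G), ConjBy U.subtype φ φ p := fun φ => by
      rw [← hcompU]
      constructor
      · intro h p hp
        obtain ⟨x, rfl⟩ : p ∈ ι.range := hrange ▸ Subgroup.le_normalizer hp
        exact (ConjBy.comp_iff ι hι).2 (h x ((hP' x).2 hp))
      · exact fun h x hx => (ConjBy.comp_iff ι hι).1 (h _ ((hP' x).1 hx))
    have heq : (Nat.card (OddOver b f θ) : ℚ) = Nat.card (OddOver b fN θ) := by
      rw [h1, h2]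
      refine Finset.sum_congr (by ext φ; simp [hPeq]) fun φ hφ => ?_
      simp only [Finset.mem_filter, Finset.mem_univ, true_and, hPeq] at hφ
      have hidxU : U.index < m := by
        rw [← hidx]
        exact Subgroup.index_strictAnti hlt
      have key := IHm U.index hidxU hn P ι hι hrange fNU (by rw [hcompU]; exact hnU)
        (by rw [hcompU, Subgroup.range_subtype]) hU2 φ
        (by rw [hcompU, U.ker_subtype]; exact bot_le) (by rw [hcompU]; exact hφ.2.1) hφ.1 hb
      rw [hcompU] at key
      rw [key]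
      congr 2
      refine Nat.card_congr (Equiv.subtypeEquivRight fun η => exists_congr fun x => ?_)
      rw [MonoidHom.id_apply, ← ConjBy.comp_iff ι hι, hcompU]
    exact_mod_cast heq
  · -- a normal subgroup of odd order
    have hrodd : Odd r := hr.odd_of_ne_two hr2
    have hA : IsPGroup r A := fun x => ⟨1, Subtype.ext (by
      rw [pow_one, Subgroup.coe_pow]; exact hAr _ x.2)⟩
    haveI : Group.IsNilpotent A := hA.isNilpotent
    let φU : U →* A := ((QuotientGroup.mk' f.range).comp U.subtype).codRestrict A fun x => x.2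
    haveI : Group.IsNilpotent U := Subgroup.isNilpotent_of_ker_le_center φU fun x hx => by
      rw [Subgroup.mem_center_iff]
      intro y
      have hx' : (x : G) ∈ f.range := (QuotientGroup.eq_one_iff _).1 (congrArg Subtype.val hx)
      obtain ⟨v, hv⟩ := hx'
      exact Subtype.ext (by
        show (y : G) * x = x * y
        rw [← hv]
        exact Subgroup.mem_center_iff.1 (hcentral v) y)
    obtain ⟨S⟩ : Nonempty (Sylow r U) := inferInstance
    haveI : (S : Subgroup U).Characteristic := Sylow.characteristic_of_normal S inferInstance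
    set Q := (S : Subgroup U).map U.subtype with hQ
    haveI : Q.Normal := ConjAct.normal_of_characteristic_of_normal
    obtain ⟨k, hk⟩ := IsPGroup.iff_card.1 S.2
    have hcardQ : Nat.card Q = r ^ k := by
      rw [hQ, Subgroup.card_map_of_injective U.subtype_injective, hk]
    have hQodd : Odd (Nat.card Q) := hcardQ ▸ hrodd.pow
    have hQR : ∀ x ∈ Q, x ∈ f.range → x = 1 := fun x hxQ hxR => by
      obtain ⟨j, hj⟩ := IsPGroup.iff_card.1 hR2
      exact orderOf_eq_one_iff.1 (Nat.eq_one_of_dvd_coprimes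
        ((Nat.coprime_two_left.2 hQodd).pow_left j) (hj ▸ Subgroup.orderOf_dvd_natCard _ hxR)
        (Subgroup.orderOf_dvd_natCard _ hxQ))
    have hQU : Q ≤ U := Subgroup.map_subtype_le _
    have hQab : ∀ x ∈ Q, ∀ y ∈ Q, x * y = y * x := fun x hx y hy => by
      rw [← commutatorElement_eq_one_iff_mul_comm]
      refine hQR _ ?_ ?_
      · rw [commutatorElement_def]
        exact mul_mem (mul_mem (mul_mem hx hy) (inv_mem hx)) (inv_mem hy)
      · rw [← QuotientGroup.eq_one_iff, ← QuotientGroup.mk'_apply, map_commutatorElement,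
          commutatorElement_eq_one_iff_mul_comm]
        exact hAab _ (hQU hx) _ (hQU hy)
    have hQne : Q ≠ ⊥ := by
      intro h
      have hS : Nat.card (S : Subgroup U) = 1 := by
        rw [← Subgroup.card_map_of_injective U.subtype_injective, ← hQ, h, Subgroup.card_bot]
      have hdvd : r ∣ Nat.card U := by
        have h1 : Nat.card A ∣ Nat.card U := by
          refine Subgroup.card_dvd_of_surjective φU fun a => ?_
          obtain ⟨x, hx⟩ := QuotientGroup.mk'_surjective _ (a : G ⧸ f.range)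
          exact ⟨⟨x, by rw [hU, Subgroup.mem_comap, hx]; exact a.2⟩, Subtype.ext hx⟩
        obtain ⟨j, hj⟩ := IsPGroup.iff_card.1 hA
        rcases j with _ | j
        · exact absurd (Subgroup.card_eq_one.1 (by rw [hj, pow_zero])) hAne
        · exact (dvd_pow_self r j.succ_ne_zero).trans (hj ▸ h1)
      refine S.not_dvd_index ?_
      rwa [← Subgroup.card_mul_index (S : Subgroup U), hS, one_mul] at hdvd
    refine quot Q hQne (fun v hv => MonoidHom.mem_ker.1 (hker ?_)) (fun χ x hx => ?_)
      fun χ x hx => ?_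
    · exact MonoidHom.mem_ker.2 (hQR _ hv ⟨v, rfl⟩)
    · refine apply_eq_apply_one_of_odd_normal b (P : Subgroup G) P.2 Q hQodd hQab
        (fun h y hy hfixed => ?_) χ.1.2 χ.2.1 χ.2.2.1 hx
      have hy' : y ∈ Subgroup.normalizer ((P : Subgroup G) : Set G) := by
        refine Subgroup.mem_normalizer_iff.2 fun p => ⟨fun hp => ?_, fun hp => ?_⟩
        · have h1 := hfixed p hp
          rw [show y * p * y⁻¹ = p by
            rw [← mul_inv_eq_iff_eq_mul.1 h1, mul_inv_cancel_right]]
          exact hp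
        · have h1 := mul_inv_eq_iff_eq_mul.1 (hfixed _ hp)
          rw [show y * p * y⁻¹ * y = y * p by group] at h1
          rwa [← mul_left_cancel h1] at hp
      rw [← hrange, hb h] at hy'
      obtain ⟨j, hj⟩ := IsPGroup.iff_card.1 P.2
      exact orderOf_eq_one_iff.1 (Nat.eq_one_of_dvd_coprimes
        ((Nat.coprime_two_left.2 hQodd).pow_left j) (hj ▸ Subgroup.orderOf_dvd_natCard _ hy')
        (Subgroup.orderOf_dvd_natCard _ hy))
    · haveI : (Q.comap ι).Normal := Subgroup.Normal.comap inferInstance ι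
      refine apply_eq_apply_one_of_odd_normal b (P' : Subgroup N₀) P'.2 (Q.comap ι) ?_ ?_
        (fun h y hy _ => ?_) χ.1.2 χ.2.1 χ.2.2.1 hx
      · refine hQodd.of_dvd_nat ?_
        rw [← Subgroup.card_map_of_injective hι]
        exact Subgroup.card_dvd_of_le (Subgroup.map_comap_le _ _)
      · exact fun a ha c hc => hι (by rw [map_mul, map_mul]; exact hQab _ ha _ hc)
      · have hy' : ι y ∈ (P : Subgroup G) := hb h ▸ ⟨y, rfl⟩
        obtain ⟨j, hj⟩ := IsPGroup.iff_card.1 P.2
        refine hι (Eq.trans ?_ (map_one ι).symm)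
        exact orderOf_eq_one_iff.1 (Nat.eq_one_of_dvd_coprimes
          ((Nat.coprime_two_left.2 hQodd).pow_left j) (hj ▸ Subgroup.orderOf_dvd_natCard _ hy')
          (Subgroup.orderOf_dvd_natCard _ hy))

/-- The odd-degree characters (real ones if `b`) are counted in the group mapping onto the Sylow
`2`-normalizer. -/
theorem card_oddDegree_eq_normalizer (b : Bool) {G N₀ : Type u} [Group G] [Finite G] [Group N₀]
    [Finite N₀] [Group.IsSolvable G] (P : Sylow 2 G) (ι : N₀ →* G) (hι : Function.Injective ι)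
    (hrange : ι.range = Subgroup.normalizer ((P : Subgroup G) : Set G))
    (hb : b = false → ι.range = (P : Subgroup G)) :
    Nat.card {χ : IrrCharacter G // RealIf b (χ : G → ℂ) ∧ Odd (charDegree (χ : G → ℂ))} =
      Nat.card {ψ : IrrCharacter N₀ //
        RealIf b (ψ : N₀ → ℂ) ∧ Odd (charDegree (ψ : N₀ → ℂ))} := by
  let fN : (⊥ : Subgroup N₀) →* N₀ := (⊥ : Subgroup N₀).subtype
  have hf1 : ∀ v : (⊥ : Subgroup N₀), ι.comp fN v = 1 := fun v => by
    show ι (v : N₀) = 1
    rw [Subgroup.mem_bot.1 v.2, map_one]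
  have htriv : (ι.comp fN).range = ⊥ := by
    rw [eq_bot_iff]
    rintro _ ⟨v, rfl⟩
    rw [hf1]
    exact one_mem _
  have key := card_oddOver_eq_normalizer_aux b (Nat.card G) (ι.comp fN).range.index rfl P ι hι
    hrange fN (by rw [htriv]; infer_instance) rfl (IsPGroup.of_card (n := 0) (by simp)) 1
    (fun _ _ => MonoidHom.mem_ker.2 rfl) (fun _ _ _ _ _ => rfl)
    (fun _ _ => by simp) hb
  refine Eq.trans (Nat.card_congr (Equiv.subtypeEquivRight fun χ => ?_))
    (key.trans (Nat.card_congr (Equiv.subtypeEquivRight fun χ => ?_)))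
  · refine ⟨fun h => ⟨h.1, h.2, ?_⟩, fun h => ⟨h.1, h.2.1⟩⟩
    rw [OverHom, finsum_unique, hf1]
    simpa using apply_one_ne_zero_of_isIrr χ.2
  · refine ⟨fun h => ⟨h.1, h.2.1⟩, fun h => ⟨h.1, h.2, ?_⟩⟩
    rw [OverHom, finsum_unique, show fN default = 1 from Subgroup.mem_bot.1 (default : (⊥ : Subgroup N₀)).2]
    simpa using apply_one_ne_zero_of_isIrr χ.2

end CfsgLib.Correspondences
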